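import Cfsg.Agent.Lib.Golay.Search

/-!
# Recognising Steiner systems by counting
-/

namespace Cfsg.Lib.Golay

open Finset

variable {α : Type*} [Fintype α] [DecidableEq α] {t k : ℕ}

theorem steiner_of_count {B : Set (Finset α)} (h1 : ∀ b ∈ B, b.card = k)
    (h2 : ∀ b ∈ B, ∀ c ∈ B, t ≤ (b ∩ c).card → b = c)
    (h3 : B.ncard * k.choose t = (Fintype.card α).choose t) : IsSteinerSystem t k B := by
  classical
  refine ⟨h1, fun s hs => ?_⟩
  let F : Finset (Finset α) := univ.filter (· ∈ B)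
  have hF : F.card = B.ncard := by
    rw [← Set.ncard_coe_finset]; congr 1; ext; simp [F]
  have hle : ∀ T ∈ (univ : Finset α).powersetCard t, #(F.bipartiteBelow (fun c T => T ⊆ c) T) ≤ 1 := by
    intro T hT
    rw [card_le_one]
    intro b hb c hc
    simp only [mem_bipartiteBelow, F, mem_filter, mem_univ, true_and] at hb hc
    apply h2 b hb.1 c hc.1
    rw [← (mem_powersetCard.1 hT).2]
    exact card_le_card (subset_inter hb.2 hc.2)
  have hsum : ∑ T ∈ (univ : Finset α).powersetCard t, #(F.bipartiteBelow (fun c T => T ⊆ c) T) =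
      ∑ _T ∈ (univ : Finset α).powersetCard t, 1 := by
    rw [← sum_card_bipartiteAbove_eq_sum_card_bipartiteBelow, sum_const, card_powersetCard,
      card_univ, ← h3, ← hF, smul_eq_mul, mul_one, ← smul_eq_mul, ← sum_const]
    apply sum_congr rfl
    intro c hc
    simp only [F, mem_filter, mem_univ, true_and] at hc
    rw [← h1 c hc, ← card_powersetCard]
    congr 1
    ext T
    simp only [mem_bipartiteAbove, mem_powersetCard, subset_univ, true_and]
    tauto
  have h4 := (sum_eq_sum_iff_of_le hle).1 hsum s (mem_powersetCard.2 ⟨subset_univ _, hs⟩)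
  obtain ⟨b, hb⟩ := card_eq_one.1 h4
  have h5 : ∀ c, c ∈ B ∧ s ⊆ c ↔ c = b := by
    intro c
    rw [← mem_singleton, ← hb]
    simp [F]
  exact ⟨b, (h5 b).2 rfl, fun c hc => (h5 c).1 hc⟩

theorem steiner_sysOf {I : Ix α} (hn : I.n ≤ 24) {a : ℕ} {L : List ℕ}
    (h : incL (2 ^ I.n) L a = true)
    (h1 : allL (a :: L) (fun b => Nat.beq (pc b) k &&
      allL (a :: L) fun c => Nat.blt (pc (Nat.land b c)) t || Nat.beq b c) = true)
    (hcount : (L.length + 1) * k.choose t = I.n.choose t) :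
    IsSteinerSystem t k (sysOf I (a :: L)) := by
  have h2 := (incL_spec h).2
  simp only [allL_iff, Bool.and_eq_true, Nat.beq_eq, Bool.or_eq_true, Nat.blt_eq] at h1
  apply steiner_of_count
  · rintro _ ⟨m, hm, rfl⟩
    rw [I.card_toF_pc hn (h2 m hm), (h1 m hm).1]
  · rintro _ ⟨m, hm, rfl⟩ _ ⟨m', hm', rfl⟩ h3
    rw [I.card_inter_pc hn (h2 m hm)] at h3
    rcases (h1 m hm).2 m' hm' with h4 | h4
    · omega
    · rw [h4]
  · rw [ncard_sysOf h, hcount, I.card_eq]

end Cfsg.Lib.Golay
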