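import Cfsg.Agent.Lib.Golay.Ternary
import Cfsg.Agent.Lib.Golay.SteinerCheck

/-!
# The ternary Golay code: hexads form S(5,6,12), diagonal automorphisms
-/

namespace Cfsg.Lib.Golay

theorem ternHexads_steiner : IsSteinerSystem 5 6 ternHexads := by
  rw [ternHexads_eq]
  exact steiner_sysOf (by decide) (by decide +kernel) (by decide +kernel) (by decide +kernel)

theorem ternary_diag {c : ArrayPt → (ZMod 3)ˣ}
    (h : ∀ x ∈ ternaryGolayCode, monomialMap 1 c x ∈ ternaryGolayCode) :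
    (∀ p, c p = 1) ∨ (∀ p, c p = -1) := by
  have key : ∀ x ∈ ternaryGolayCode, ∀ p, (c p : ZMod 3) * x p =
      tenc (c (0, 0) * x (0, 0)) (c (0, 1) * x (0, 1)) (c (0, 2) * x (0, 2))
        (c (1, 0) * x (1, 0)) (c (1, 1) * x (1, 1)) (c (2, 0) * x (2, 0)) p :=
    fun x hx p => congrFun (eq_tenc (h x hx)) p
  have k1 := key _ (tenc_mem 1 0 0 0 0 0)
  have k2 := key _ (tenc_mem 0 1 0 0 0 0)
  have k3 := key _ (tenc_mem 0 0 1 0 0 0)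
  have k4 := key _ (tenc_mem 0 0 0 1 0 0)
  have k5 := key _ (tenc_mem 0 0 0 0 1 0)
  have k6 := key _ (tenc_mem 0 0 0 0 0 1)
  have e1 : (c (1, 2) : ZMod 3) * (1 + 0 + 0 + 2 * 0 + 2 * 0) =
    c (0, 0) * 1 + c (0, 1) * 0 + c (0, 2) * 0 + 2 * (c (1, 0) * 0) + 2 * (c (1, 1) * 0) :=
    k1 (1, 2)
  have e2 : (c (1, 2) : ZMod 3) * (0 + 1 + 0 + 2 * 0 + 2 * 0) =
    c (0, 0) * 0 + c (0, 1) * 1 + c (0, 2) * 0 + 2 * (c (1, 0) * 0) + 2 * (c (1, 1) * 0) :=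
    k2 (1, 2)
  have e3 : (c (1, 2) : ZMod 3) * (0 + 0 + 1 + 2 * 0 + 2 * 0) =
    c (0, 0) * 0 + c (0, 1) * 0 + c (0, 2) * 1 + 2 * (c (1, 0) * 0) + 2 * (c (1, 1) * 0) :=
    k3 (1, 2)
  have e4 : (c (1, 2) : ZMod 3) * (0 + 0 + 0 + 2 * 1 + 2 * 0) =
    c (0, 0) * 0 + c (0, 1) * 0 + c (0, 2) * 0 + 2 * (c (1, 0) * 1) + 2 * (c (1, 1) * 0) :=
    k4 (1, 2)
  have e5 : (c (1, 2) : ZMod 3) * (0 + 0 + 0 + 2 * 0 + 2 * 1) =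
    c (0, 0) * 0 + c (0, 1) * 0 + c (0, 2) * 0 + 2 * (c (1, 0) * 0) + 2 * (c (1, 1) * 1) :=
    k5 (1, 2)
  have e6 : (c (2, 2) : ZMod 3) * (1 + 2 * 0 + 0 + 2 * 0 + 0) =
    c (0, 0) * 1 + 2 * (c (0, 1) * 0) + c (1, 0) * 0 + 2 * (c (1, 1) * 0) + c (2, 0) * 0 :=
    k1 (2, 2)
  have e7 : (c (2, 2) : ZMod 3) * (0 + 2 * 0 + 0 + 2 * 0 + 1) =
    c (0, 0) * 0 + 2 * (c (0, 1) * 0) + c (1, 0) * 0 + 2 * (c (1, 1) * 0) + c (2, 0) * 1 :=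
    k6 (2, 2)
  have e8 : (c (2, 1) : ZMod 3) * (2 * 0 + 0 + 2 * 0 + 0 + 1) =
    2 * (c (0, 1) * 0) + c (0, 2) * 0 + 2 * (c (1, 0) * 0) + c (1, 1) * 0 + c (2, 0) * 1 :=
    k6 (2, 1)
  have e9 : (c (3, 0) : ZMod 3) * (1 + 2 * 0 + 2 * 0 + 2 * 0 + 2 * 0) =
    c (0, 0) * 1 + 2 * (c (0, 1) * 0) + 2 * (c (0, 2) * 0) + 2 * (c (1, 0) * 0) +
      2 * (c (2, 0) * 0) := k1 (3, 0)
  have e10 : (c (3, 1) : ZMod 3) * (1 + 0 + 0 + 0 + 2 * 0) =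
    c (0, 0) * 1 + c (0, 2) * 0 + c (1, 0) * 0 + c (1, 1) * 0 + 2 * (c (2, 0) * 0) := k1 (3, 1)
  have e11 : (c (3, 2) : ZMod 3) * (2 * 1 + 2 * 0 + 0 + 2 * 0 + 2 * 0) =
    2 * (c (0, 0) * 1) + 2 * (c (0, 1) * 0) + c (0, 2) * 0 + 2 * (c (1, 1) * 0) +
      2 * (c (2, 0) * 0) := k1 (3, 2)
  have hall : ∀ p, c p = c (0, 0) := by
    rintro ⟨i, r⟩
    apply Units.ext
    have hr : r = 0 ∨ r = 1 ∨ r = 2 := by revert r; decide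
    fin_cases i <;> rcases hr with rfl | rfl | rfl <;> simp only [Fin.zero_eta, Fin.mk_one,
      Fin.reduceFinMk, Fin.isValue] <;> grind
  have : ∀ u : (ZMod 3)ˣ, u = 1 ∨ u = -1 := by decide
  rcases this (c (0, 0)) with h0 | h0
  · exact Or.inl fun p => (hall p).trans h0
  · exact Or.inr fun p => (hall p).trans h0

end Cfsg.Lib.Golay
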